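import Cfsg.Agent.H7.Mu.Co1mTD

set_option autoImplicit false
set_option maxRecDepth 100000

namespace CfsgH7.Co1mT

theorem c8 : Nat.beq (nsum2 D.val 39424 77 64) 4928 = true := by decide +kernel

theorem c9 : Nat.beq (nsum2 D.val 44352 77 64) 4928 = true := by decide +kernel

theorem c10 : Nat.beq (nsum2 D.val 49280 77 64) 4928 = true := by decide +kernel

theorem c11 : Nat.beq (nsum2 D.val 54208 77 64) 4928 = true := by decide +kernel

theorem c12 : Nat.beq (nsum2 D.val 59136 77 64) 4928 = true := by decide +kernel

theorem c13 : Nat.beq (nsum2 D.val 64064 77 64) 4928 = true := by decide +kernel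

theorem c14 : Nat.beq (nsum2 D.val 68992 77 64) 4928 = true := by decide +kernel

theorem c15 : Nat.beq (nsum2 D.val 73920 77 64) 4928 = true := by decide +kernel


end CfsgH7.Co1mT
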