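import Cfsg.Agent.H7.Mu.Co1mTD

set_option autoImplicit false
set_option maxRecDepth 100000

namespace CfsgH7.Co1mT

theorem c16 : Nat.beq (nsum2 D.val 78848 77 64) 4928 = true := by decide +kernel

theorem c17 : Nat.beq (nsum2 D.val 83776 77 64) 4928 = true := by decide +kernel

theorem c18 : Nat.beq (nsum2 D.val 88704 77 64) 4928 = true := by decide +kernel

theorem c19 : Nat.beq (nsum2 D.val 93632 77 64) 4648 = true := by decide +kernel


end CfsgH7.Co1mT
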