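import Cfsg.Agent.H7.Mu.Co1mTC0
import Cfsg.Agent.H7.Mu.Co1mTC1
import Cfsg.Agent.H7.Mu.Co1mTC2

set_option autoImplicit false
set_option maxRecDepth 100000

namespace CfsgH7.Co1mT

theorem pre : tcPre D cl invs rels subs W0 98560 98280 = true := by decide +kernel

theorem u0 : Upto D.val 0 0 := Upto.zero _
theorem u1 : Upto D.val 4928 4928 := u0.step c0 (by decide) (by decide)
theorem u2 : Upto D.val 9856 9856 := u1.step c1 (by decide) (by decide)
theorem u3 : Upto D.val 14784 14784 := u2.step c2 (by decide) (by decide)
theorem u4 : Upto D.val 19712 19712 := u3.step c3 (by decide) (by decide)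
theorem u5 : Upto D.val 24640 24640 := u4.step c4 (by decide) (by decide)
theorem u6 : Upto D.val 29568 29568 := u5.step c5 (by decide) (by decide)
theorem u7 : Upto D.val 34496 34496 := u6.step c6 (by decide) (by decide)
theorem u8 : Upto D.val 39424 39424 := u7.step c7 (by decide) (by decide)
theorem u9 : Upto D.val 44352 44352 := u8.step c8 (by decide) (by decide)
theorem u10 : Upto D.val 49280 49280 := u9.step c9 (by decide) (by decide)
theorem u11 : Upto D.val 54208 54208 := u10.step c10 (by decide) (by decide)
theorem u12 : Upto D.val 59136 59136 := u11.step c11 (by decide) (by decide)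
theorem u13 : Upto D.val 64064 64064 := u12.step c12 (by decide) (by decide)
theorem u14 : Upto D.val 68992 68992 := u13.step c13 (by decide) (by decide)
theorem u15 : Upto D.val 73920 73920 := u14.step c14 (by decide) (by decide)
theorem u16 : Upto D.val 78848 78848 := u15.step c15 (by decide) (by decide)
theorem u17 : Upto D.val 83776 83776 := u16.step c16 (by decide) (by decide)
theorem u18 : Upto D.val 88704 88704 := u17.step c17 (by decide) (by decide)
theorem u19 : Upto D.val 93632 93632 := u18.step c18 (by decide) (by decide)
theorem u20 : Upto D.val 98560 98280 := u19.step c19 (by decide) (by decide)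

theorem relIndex {G : Type*} [Group G] (g : Nat → G) (K : Subgroup G) (hinv : ∀ k ∈ invs, g k * g k = 1)
    (hrel : ∀ r ∈ rels, wprod g r = 1) (hsub : ∀ h ∈ subs, wprod g h ∈ K) :
    K.relIndex (genW g W0) ≠ 0 ∧ K.relIndex (genW g W0) ≤ 98280 :=
  tc_relIndex g K D cl invs rels subs W0 _ _ hinv hrel hsub pre u20

end CfsgH7.Co1mT
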