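import Cfsg.Agent.H7.Mult3
import Cfsg.Agent.H7.Mult5
import Cfsg.Agent.H7.Blk
import Cfsg.Agent.H7.Mx2
import Cfsg.Agent.H7.Mu.Co2
import Cfsg.Agent.H7.Ou.Co1A
import Cfsg.Agent.H7.Lee.Cfg
import Cfsg.Agent.H7.Mu.Co1mT
import Cfsg.Agent.H7.Mu.Co1mP420

set_option autoImplicit false
set_option Elab.async false
set_option maxRecDepth 100000

universe u

open scoped Pointwise

namespace CfsgH7.Co2m

theorem mdl0 : Mdl G0 5 Rf 42305421312000 := M0.mdl' (U := A) (R := Rf) At As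
theorem perf {G : Type*} [Group G] {g : Nat → G} (h : Sat g Rf) :
    ⁅genW g (gensW 5), genW g (gensW 5)⁆ = genW g (gensW 5) :=
  perfect_of_nrm (R := Rf) (cs := [[10,17],[1,15,68],[65,66],[0,25,22,33,34],[22,36,69,43]]) h (by decide +kernel)
theorem perf0 : commutator G0 = ⊤ := by
  have := M0.perfU (U := A) perf As
  rwa [At] at this

end CfsgH7.Co2m

namespace CfsgH7.Co1m

def R : List (List Nat) := [[4,4],[6,6],[8,8],[10,10],[0,8,0,8],[0,10,1,10],[2,8,3,8],[2,10,3,10],[0,0,3,0,2],[2,4,2,4,2,4],[0,0,0,0,0,2,1,3],[2,6,3,6,2,6,3,6],[2,2,6,3,10,4,2,10,6,3,3,6],[8,10,8,10,8,10,8,10,8,10,8,10],[0,3,4,2,1,8,4,1,3,4,2,0,4,8],[4,10,6,10,4,10,6,10],[4,8,4,8,4,8,4,8],[2,4,3,10,4,2,6,3,4,2,6,3,4,10],[2,4,10,6,8,6,10,4,3,10,4,8,4,10],[2,2,4,8,4,8,6,10,4,10,8,4,2,8,4],[0,0,0,4,2,0,6,4,3,10,4,2,10,4,6,4],[0,0,0,6,3,4,3,6,1,8,3,3,4,8,2],[0,0,0,4,2,0,4,0,0,0,4,2,0,4],[0,3,8,4,8,10,8,4,2,0,3,8,4,10,4,2],[0,3,4,1,2,4,2,0,10,4,2,10,4,2,6,2],[2,2,2,4,3,3,4,2,8,6,4,10,4,10,4,6,8],[0,0,2,8,1,6,3,4,3,6,8,0,3,3,4],[10,8,10,6,10,3,4,8,6,8,10,1,2,4,2,0,4,6,3,1,4,1,4],[0,3,3,6,3,6,4,6,4,3,6,1,8,3,4,8],[8,6,1,6,4,0,2,8,6,2,8,6,10,8,6,10,6,8,4,10,6,8,10,1,4,6,8,10,0,6,0,0,6,4,2,6,4,2]]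
def S : List (List Nat) := [[0],[2],[4],[6],[8]]
theorem p2 : P2.{u} 6 R S 98280 := fun _ _ g K hs hS =>
  have hf := hs.follows (invs := Co1mT.invs) (rels := Co1mT.rels) (by decide +kernel)
  Co1mT.relIndex g K hf.1 hf.2 hS
noncomputable def Rf : List (List Nat) := R ++ (Co2m.Rf).map (substW S)
theorem pr : Pr.{u} 6 Rf 4157776806543360000 := Pr.step (S := S) p2 Co2m.pr
theorem nr420 : nrmOk 6 R Co1mP420.cs 420 = true := by decide +kernel
theorem lv420 : Lv.{u} 6 Rf 4157776806543360000 420 2 := Lv.step (S := S) (a := 2) Co1mP420.p1 p2 nr420 Co2m.pr (Lv.of_sb Co2m.pr Co2m.mdl0 Co2m.perf0 Co2m.sb 420)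
theorem perf {G : Type*} [Group G] {g : Nat → G} (h : Sat g Rf) :
    ⁅genW g (gensW 6), genW g (gensW 6)⁆ = genW g (gensW 6) :=
  perfect_of_nrm (R := R) (cs := [[16,21],[4,21,40,51],[7,8,19,34,43],[1,6,18,32,39],[20,25,47,54],[3,23,23,27,51,51,54,58]]) (fun r hr => h r (List.mem_append_left _ hr)) (by decide +kernel)

end CfsgH7.Co1m

namespace CfsgH7.Co1m

open scoped Pointwise

abbrev G0 : Type := Co1.G0
noncomputable abbrev g0 : Nat → G0 := Co1.Ou.g1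
noncomputable abbrev l : List Net := Co1.Ou.l1
abbrev bs : List Nat := Co1.bs
theorem M0 : Md (finPt 98280) 98280 g0 l 4 4157776806543360000 bs := Co1.Ou.M1

end CfsgH7.Co1m

namespace CfsgH7.Co1m

def A : List (List Nat) := [[8],[10],[12],[14],[10,9,11,12,14,11,11,9,12,14,12,8,10,10,14,11,11,8,2,9,10,10,12,8,8,2,9,9,12,14,12,8,10,10,12,8,10,10,14,12,8,10,10,12,8,8,2,9,9],[32,38,16,1,10,9,14,24,14,8,2,20,2,1,37,22,36,0,10,9,14,24,14,8,24,38,18,5,18,12,24,38,4,34,31,20,5,12,19,4,19,39,24,9,26,12,27,8,5,12,19,4,19,39,24,5,24,38,4,34,31,20,9,14,24,14,8,1,37,22,36,0,20,30,35,5,39,24,4,4,37,12,36,5]]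
theorem As_0 : lall (fun w => fixesP l w bs) ((Rf.take 12).map (substW A)) = true := by decide +kernel
theorem As_1 : lall (fun w => fixesP l w bs) (((Rf.drop 12).take 2).map (substW A)) = true := by decide +kernel
theorem As_2 : lall (fun w => fixesP l w bs) ((((Rf.drop 12).drop 2).take 4).map (substW A)) = true := by decide +kernel
theorem As_3 : lall (fun w => fixesP l w bs) (((((Rf.drop 12).drop 2).drop 4).take 3).map (substW A)) = true := by decide +kernel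
theorem As_4 : lall (fun w => fixesP l w bs) ((((((Rf.drop 12).drop 2).drop 4).drop 3).take 5).map (substW A)) = true := by decide +kernel
theorem As_5 : lall (fun w => fixesP l w bs) (((((((Rf.drop 12).drop 2).drop 4).drop 3).drop 5).take 3).map (substW A)) = true := by decide +kernel
theorem As_6 : lall (fun w => fixesP l w bs) ((((((((Rf.drop 12).drop 2).drop 4).drop 3).drop 5).drop 3).take 5).map (substW A)) = true := by decide +kernel
theorem As_7 : lall (fun w => fixesP l w bs) (((((((((Rf.drop 12).drop 2).drop 4).drop 3).drop 5).drop 3).drop 5).take 16).map (substW A)) = true := by decide +kernel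
theorem As_8 : lall (fun w => fixesP l w bs) (((((((((Rf.drop 12).drop 2).drop 4).drop 3).drop 5).drop 3).drop 5).drop 16).map (substW A)) = true := by decide +kernel
theorem As : lall (fun w => fixesP l w bs) (Rf.map (substW A)) = true :=
  (lall_split 12 As_0 (lall_split 2 As_1 (lall_split 4 As_2 (lall_split 3 As_3 (lall_split 5 As_4 (lall_split 3 As_5 (lall_split 5 As_6 (lall_split 16 As_7 As_8))))))))
def St : List (List (List Nat)) := [[[2],[4,8,2,1,8,2,1,3,4,3,3,1,2,0,3,8,4,3,3,1,2,0,3,8,4,3,3,1,2,0,3,8,4,3,3,1,2,0,3,8,4,3,3,1,4,3,3,1,2,0,3,8]], [[0],[12,10,1,4,0,2,6,12,10,2,12,2,6,4,6,4,3,12,4,12,0,12,6,2,12,4,3,3,1,3,12,4,12,0,12,6,2,12,4,6,4,12,3,6,12,1,12,4,12,2,4,6,4,0,2,2,6,4,3,12,4,12,0,12,6,2,12,4,6,4,0,2,2,6,3,3,1,12,3,6,12,1,12,4,12,2,0,2,2,4,0,2,2,4]], [[4],[12,4,12,6,4,3,3,1,4,3,3,1,4,6,3,3,1,4,6,3,3,1,4,3,3,1,4,6,4,0,2,2,6,4,0,2,2,6,3,3,1,4,3,3,1,4,6,4,0,2,2,6,3,3,1,4,6,3,3,1,4,6,4]],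 [[6],[10,12,10,0,6,3,12,2,6,0,6,12,10,4,6,3,12,1,4,6,3,3,1,12,3,6,12,1,12,4,12,2,4,3,3,1,12,3,6,12,1,12,4,12,2,4,3,3,1,4,6,4,0,2,2,6,3,3,1,12,3,6,12,1,12,4,12,2,0,2,2,4,0,2,2,4,12,3,6,12,1,12,4,12,2,4,6,4,12,3,6,12,1,12,4,12,2,4,6,4,0,2,2,4]]]
theorem At : genW g0 A = ⊤ := eq_top_iff.2 (M0.gen.ge.trans ((genW_le.2 fun w hw => mem_genW g0 (by
    revert w; decide +kernel)).trans (M0.slpLe St A (by decide +kernel))))
theorem Ac : Nat.card (genW g0 A) = 4157776806543360000 := At ▸ M0.ctop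
theorem s : SBp G0 420 2 := DB.sbp (At ▸ (M0.db lv420 As Ac.ge))

end CfsgH7.Co1m

namespace CfsgH7.Co1m

theorem sb : SB G0 2 :=
  SB.of M0.card [2,3,5,7,11,13,23] (by norm_num) [(210, 420, 2)] (by
    intro x hx
    simp only [List.mem_cons, List.not_mem_nil, or_false] at hx
    rcases hx with rfl
    · exact s)
    (by decide +kernel)

end CfsgH7.Co1m

namespace CfsgH7.Co1m

theorem perf0 : commutator G0 = ⊤ := by
  have := M0.perfU (U := A) perf As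
  rwa [At] at this

theorem schur : Cfsg.HasCyclicSchurMultiplier Cfsg.Spor.Co1 2 := by
  obtain ⟨e, -⟩ := Co1.iso
  have hp : commutator Cfsg.Spor.Co1 = ⊤ := by
    have := congrArg (Subgroup.map e.symm.toMonoidHom) perf0
    rwa [_root_.commutator_def, Subgroup.map_commutator, Subgroup.map_top_of_surjective _ e.symm.surjective] at this
  have ho : orderOf Lee.neg1 = 2 := by rw [← Nat.card_zpowers]; exact Co1.card_neg
  have := M0.fin
  have : Finite Cfsg.Spor.Co1 := Finite.of_equiv _ e.symm.toEquiv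
  exact schur_of hp (cov_cext ho Co1.center_eq (by rw [Lee.perf0]; trivial)).2 (by simp [Nat.card_zmod]) (sb.congr e.symm)

end CfsgH7.Co1m

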