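import Cfsg.Agent.H7.Mu.Co1mP420D

set_option autoImplicit false
set_option maxRecDepth 100000

namespace CfsgH7.Co1mP420

theorem c0 : Nat.beq (nsum2 X.val 0 146 16) 0 = true := by decide +kernel

theorem c1 : Nat.beq (nsum2 X.val 2336 146 16) 0 = true := by decide +kernel


end CfsgH7.Co1mP420
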