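import Cfsg.Agent.H7.Mu.Co1mTD

set_option autoImplicit false
set_option maxRecDepth 100000

namespace CfsgH7.Co1mT

theorem c0 : Nat.beq (nsum2 D.val 0 77 64) 4928 = true := by decide +kernel

theorem c1 : Nat.beq (nsum2 D.val 4928 77 64) 4928 = true := by decide +kernel

theorem c2 : Nat.beq (nsum2 D.val 9856 77 64) 4928 = true := by decide +kernel

theorem c3 : Nat.beq (nsum2 D.val 14784 77 64) 4928 = true := by decide +kernel

theorem c4 : Nat.beq (nsum2 D.val 19712 77 64) 4928 = true := by decide +kernel

theorem c5 : Nat.beq (nsum2 D.val 24640 77 64) 4928 = true := by decide +kernel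

theorem c6 : Nat.beq (nsum2 D.val 29568 77 64) 4928 = true := by decide +kernel

theorem c7 : Nat.beq (nsum2 D.val 34496 77 64) 4928 = true := by decide +kernel


end CfsgH7.Co1mT
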