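import Cfsg.Agent.H7.Mu.Co2mTD

set_option autoImplicit false
set_option maxRecDepth 100000

namespace CfsgH7.Co2mT

theorem c8 : Nat.beq (nsum2 D.val 41984 82 64) 5120 = true := by decide +kernel


end CfsgH7.Co2mT
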