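import Cfsg.Agent.H7.Mu.Co2mTC0
import Cfsg.Agent.H7.Mu.Co2mTC1

set_option autoImplicit false
set_option maxRecDepth 100000

namespace CfsgH7.Co2mT

theorem pre : tcPre D cl invs rels subs W0 47232 47104 = true := by decide +kernel

theorem u0 : Upto D.val 0 0 := Upto.zero _
theorem u1 : Upto D.val 5248 5248 := u0.step c0 (by decide) (by decide)
theorem u2 : Upto D.val 10496 10496 := u1.step c1 (by decide) (by decide)
theorem u3 : Upto D.val 15744 15744 := u2.step c2 (by decide) (by decide)
theorem u4 : Upto D.val 20992 20992 := u3.step c3 (by decide) (by decide)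
theorem u5 : Upto D.val 26240 26240 := u4.step c4 (by decide) (by decide)
theorem u6 : Upto D.val 31488 31488 := u5.step c5 (by decide) (by decide)
theorem u7 : Upto D.val 36736 36736 := u6.step c6 (by decide) (by decide)
theorem u8 : Upto D.val 41984 41984 := u7.step c7 (by decide) (by decide)
theorem u9 : Upto D.val 47232 47104 := u8.step c8 (by decide) (by decide)

theorem relIndex {G : Type*} [Group G] (g : Nat → G) (K : Subgroup G) (hinv : ∀ k ∈ invs, g k * g k = 1)
    (hrel : ∀ r ∈ rels, wprod g r = 1) (hsub : ∀ h ∈ subs, wprod g h ∈ K) :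
    K.relIndex (genW g W0) ≠ 0 ∧ K.relIndex (genW g W0) ≤ 47104 :=
  tc_relIndex g K D cl invs rels subs W0 _ _ hinv hrel hsub pre u9

end CfsgH7.Co2mT
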