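import Cfsg.Agent.H7.Mu.Co2mTD

set_option autoImplicit false
set_option maxRecDepth 100000

namespace CfsgH7.Co2mT

theorem c0 : Nat.beq (nsum2 D.val 0 82 64) 5248 = true := by decide +kernel

theorem c1 : Nat.beq (nsum2 D.val 5248 82 64) 5248 = true := by decide +kernel

theorem c2 : Nat.beq (nsum2 D.val 10496 82 64) 5248 = true := by decide +kernel

theorem c3 : Nat.beq (nsum2 D.val 15744 82 64) 5248 = true := by decide +kernel

theorem c4 : Nat.beq (nsum2 D.val 20992 82 64) 5248 = true := by decide +kernel

theorem c5 : Nat.beq (nsum2 D.val 26240 82 64) 5248 = true := by decide +kernel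

theorem c6 : Nat.beq (nsum2 D.val 31488 82 64) 5248 = true := by decide +kernel

theorem c7 : Nat.beq (nsum2 D.val 36736 82 64) 5248 = true := by decide +kernel


end CfsgH7.Co2mT
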