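import Cfsg.Agent.H7.Mu.Fi22mT
import Cfsg.Agent.H7.Mu.Fi22mP180
import Cfsg.Agent.H7.Is.Fi22
import Cfsg.Agent.H7.Fi23.Cover
import Cfsg.Agent.H7.Mult6

/-! The multiplier of the degree 3510 group; the triple cover in dimension 54 over the field with two elements. -/

set_option autoImplicit false
set_option maxRecDepth 100000

universe u

namespace CfsgH7.Fi22.Mu

open CfsgH7.Fi22 Subgroup

theorem p2 : P2.{u} 9 Fi22mP180.R Fi22mP180.S 3510 := fun _ _ g K hs hS =>
  have hf := hs.follows (invs := Fi22mT.invs) (rels := Fi22mT.rels) (by decide +kernel)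
  Fi22mT.relIndex g K hf.1 hf.2 hS
theorem nr : nrmOk 9 Fi22mP180.R Fi22mP180.cs 180 = true := by decide +kernel
theorem cX : Nat.card (genW g W1) = 2 * 9196830720 := by rw [K_eq, card_stab]
theorem stX : ∃ τ : genW g W1 →* U62.G0, Cfsg.IsStemExtension τ ∧ Nat.card τ.ker = 2 :=
  dc_stem U62.perf0 (Is.dc ⟨MulEquiv.refl _⟩ cX)
theorem pX : ⁅genW g W1, genW g W1⁆ = genW g W1 := stX.elim fun _ h => perf_sub (perfect_of_stem U62.perf0 h.1)
theorem sbX : SB (genW g W1) 6 := stX.elim fun _ h => SB.up U62.perf0 h.1 h.2 (by norm_num) U62.sb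
theorem sbp : SBp Cfsg.Spor.Fi22 180 6 := fun _ _ _ E => by
  have := E.fin
  have h := (Rl.step E Fi22mP180.p1 p2 nr (g := g) sat (by
    rw [gen, card_top, card, show Fi22mP180.S = W1 from rfl, cX])).dm E (by norm_num) pX
  rw [gen] at h
  exact (card_dvd_of_le h).trans (SB.dm E pX sbX)
theorem sb : SB Cfsg.Spor.Fi22 6 :=
  SB.of card [2,3,5,7,11,13] (by norm_num) [(30, 180, 6)] (by
    intro x hx
    rw [List.mem_singleton.1 hx]
    exact sbp) (by decide +kernel)
theorem perf : commutator Cfsg.Spor.Fi22 = ⊤ :=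
  (simple.eq_bot_or_eq_top_of_normal _ inferInstance).resolve_left fun e => by
    have := simple
    rw [commutator_eq_bot_iff_center_eq_top, Fi23.center22] at e
    exact bot_ne_top e

end CfsgH7.Fi22.Mu
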