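import Cfsg.Agent.H7.Mu.Fi22a
import Cfsg.Agent.H7.Mu.Fi22b

/-! The multiplier of the degree 3510 group; the triple cover in dimension 54 over the field with two elements. -/

set_option autoImplicit false
set_option maxRecDepth 100000

namespace CfsgH7.Fi22.Mu

open CfsgH7.Fi22 Pk Subgroup

theorem c3 : Cov Cfsg.Spor.Fi22 (Multiplicative (ZMod 3)) :=
  Cov.cyc1 Ou.pr sat gen card _ 3 ES V hc.1 (pow_ne3 (by
      have := hc.1 [18, 18, 18] (by decide +kernel)
      rwa [show (18 : Nat) = 2 * 9 from rfl, wprod_cons, wprod_cons, wprod_cons, wprod_nil, letter_even, mul_one,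
        ← pow_three] at this) fun e => by
      have h := hc.2 9 (by norm_num)
      rw [e] at h
      have h3 : (1 : Matrix (Fin 54) (Fin 54) (ZMod 2)) 0 0 = (Pk.ent 2 256 Ms (2 * 9) 0 0 : Nat) :=
        congrFun (congrFun h 0) 0
      rw [show Pk.ent 2 256 Ms (2 * 9) 0 0 = 0 by decide +kernel, Matrix.one_apply] at h3
      exact absurd h3 (by decide))
    (by decide +kernel) (Ou.M0.one (by decide +kernel))
theorem schur : Cfsg.HasCyclicSchurMultiplier Cfsg.Spor.Fi22 6 :=
  schur_of perf (Cov.cyc perf (dc_cov perf Fi23.cover) c3 (by norm_num)) (by simp [Nat.card_zmod]) sb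

end CfsgH7.Fi22.Mu
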