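import Cfsg.Agent.H7.Mu.L43
import Cfsg.Agent.H7.Mu.Fi22a
import Cfsg.Agent.H7.Mult7
import Cfsg.Agent.H7.Ou.Fi23

/-! The multiplier of the degree 31671 group is trivial. -/

set_option autoImplicit false
set_option maxRecDepth 100000

namespace CfsgH7.Fi23.Mu

open CfsgH7.Fi23 Subgroup
open scoped commutatorElement

theorem stX : ∃ τ : genW g W1 →* Cfsg.Spor.Fi22, Cfsg.IsStemExtension τ ∧ Nat.card τ.ker = 2 :=
  dc_stem Fi22.Mu.perf cover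
theorem sbX : SB (genW g W1) 3 := stX.elim fun _ h => SB.up Fi22.Mu.perf h.1 h.2 (by norm_num) Fi22.Mu.sb
theorem s10 : SBp Cfsg.Spor.Fi23 10 1 := fun _ _ _ E => by
  have := E.fin
  have h := Dm.tr' E (le_top (a := genW g W1)) (i := 31671) card_K (by rw [card_top, card]) (by norm_num)
  have h2 := (card_dvd_of_le h).trans (SB.dm E (perf_sub perfectK) sbX)
  exact (E.cop (a := 3) inf_le_left (by norm_num)).dvd_of_dvd_mul_left h2
def U : List (List Nat) := [[2,4,2,8,6,4],[6,4,8,16,6,18,16,6,4,8],[2,12,10,8,6,16,18,4,6,16,14,12,10,8,6,4,2,4,6,8,10,12,14,16,6,4,18,16,6,8,10,12],[8,10]]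
theorem Us : lall (fun w => fixesP l w bs) (P43.Rf.map (substW U)) = true := by decide +kernel
theorem Uc : 4421589120 ≤ Nat.card (genW g U) := Ou.M0.ge U [⟨224, [[0],[2],[4],[6]], [0,1,2,0,1,3,1,0,2,1,0,1,2], 351⟩,
  ⟨326, [[6],[0,3,0],[4,0,4],[4,2,4]], [0,0,1,0,0,2,0,0,3,0,0,2,0,0,2,0], 240⟩,
  ⟨0, [[1,4,6,1,6],[4,0,0,4,6],[0,3,0,4,3,4]], [0,1,2,0,1,2,0,1,2,1,0], 81⟩,
  ⟨429, [[1,1,2,2,0,6],[0,3,0,0,2,0,2,1]], [0,1,1,0,1,1], 9⟩,
  ⟨1, [[1,3,4,2,4,2,1,7,1,2,4,0]], [0], 2⟩,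
  ⟨475, [[0,0,7,0,6,0,0,7,1],[1,2,2,0,2,2,0,0,6]], [0,1,0], 6⟩,
  ⟨478, [[0,3,0,6,1,2,6,1,6,0],[0,2,1,1,6,2,2,1,1,6,2,1]], [0,1,0], 6⟩] 15 (by decide +kernel)
theorem Up : ⁅genW g U, genW g U⁆ = genW g U := Ou.M0.perfU (U := U) P43.perf Us
theorem d1 : DB.{0} 3 (genW g U) 1 := Ou.M0.db (U := U) P43.lv3 Us Uc
theorem d2 : DL.{0} 3 (genW g (U ++ [[2]])) (genW g U) := Ou.M0.dc (U := U) [2] Up [[6,1,6],[3,0,2,1,2,0,0,3,1],[4],[6]] (by decide +kernel)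
theorem db : DB.{0} 3 (genW g (U ++ [[2]])) 1 := d2.db d1
def Y : List (List Nat) := [[2],[4],[6],[8],[10],[16],[18]]
theorem leY : genW g Y ≤ genW g (U ++ [[2]]) := Ou.M0.le [[8],[0,6,1,6,0,8],[1,6,1,6,8],[6,0,0,7,0,6,0,0,7,1,8],[0,0,7,0,6,0,0,7,1,8],[0,3,0,4,1,2,1,4,8],[1,1,2,2,1,3,3,1,3,3,0,8]] (by decide +kernel)
theorem inv' (j : Nat) : g j * g j = 1 := by
  by_cases h : j < 10
  · exact inv j (by interval_cases j <;> decide)
  · rw [g, pg, List.getElem?_eq_none (Nat.le_of_not_lt h)]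
    exact mul_one _
def B : List Nat := [4,2,0,4,6,8,4,10,12,4,2,0,4,6,8,4,10,12,4,2,0,4,6,8,4,10,12,4,2,0,4,6,8,4,10,12,4,2,0,4,6,8,4,10,12,5,3,1,5,7,9,5,11,13,5,3,1,5,7,9,5,11,13,5,3,1,5,7,9,5,11,13,5,3,1,5,7,9,5,11,13,5,3,1,5,7,9,5,11,13]
theorem s3 : SBp Cfsg.Spor.Fi23 3 1 := fun Γ _ σ E => by
  obtain ⟨γ, e, hI⟩ := E.lift3 g inv'
  have hk : ∀ r ∈ RS, σ (wprod γ r) = 1 := fun r hr => by rw [map_wprod, e]; exact sat r hr
  have s1 : Sat γ (RS.take 55) := fun r hr => E.kil hI (Sat.nil γ) (List.all_eq_true.1 (show (RS.take 55).all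
    (fun r => kilOk [] r (r.take 2) (r.take 1) (r.length / 2)) = true by decide +kernel) r hr)
    (hk r (List.mem_of_mem_take hr))
  have s2 : wprod γ (wordAt RS 56) = 1 := E.kil hI s1 (u := [0,2,4,6,8,10,16]) (y := [0,2,0,4,2,0,6,4,2,0,16,8,6,4,2,0]) (n := 9) (by decide +kernel)
    (hk _ (by decide +kernel))
  have s3 : wprod γ (wordAt RS 55) = 1 := by
    have h1 : wprod γ (wordAt RS 55) = wprod (fun j => wprod γ (wordAt Y j)) B := by
      rw [← wprod_substW, ← wprod_normW (invs := invs0) (fun j _ => hI j) (substW Y B)]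
      exact congrArg _ (by decide +kernel)
    have h2 : wprod γ (wordAt RS 55) ∈ Dm σ (genW g (U ++ [[2]])) := ⟨hk _ (by decide +kernel), h1 ▸
      bal_mem (k := 7) (by decide +kernel) fun j hj => leY (by
        rw [map_wprod, e]
        exact mem_genW g (by interval_cases j <;> decide))⟩
    rwa [card_eq_one.1 (Nat.dvd_one.1 (db Γ σ E)), mem_bot] at h2
  have s4 : Sat γ RS := by
    rw [show RS = RS.take 55 ++ [wordAt RS 55, wordAt RS 56] by decide +kernel]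
    exact s1.append (Sat.cons s3 (Sat.cons s2 (Sat.nil _)))
  have := Sp.of_sat (σ := σ) Ou.pr s4 (by rw [e, gen, card_top, card])
  rw [e, gen] at this
  exact this.dm E
theorem sb : SB Cfsg.Spor.Fi23 1 :=
  SB.of card [2,3,5,7,11,13,17,23] (by norm_num) [(10, 10, 1), (3, 3, 1)] (by
    intro x hx
    rcases List.mem_pair.1 hx with h | h <;> rw [h]
    · exact s10
    · exact s3) (by decide +kernel)
theorem schur : Cfsg.HasCyclicSchurMultiplier Cfsg.Spor.Fi23 1 := schur_triv sb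

end CfsgH7.Fi23.Mu
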