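import Cfsg.Agent.H7.Cls
import Cfsg.Agent.H7.Li.A5
import Cfsg.Agent.H7.Mu.J1
import Cfsg.Agent.H7.Mx5

/-! The centraliser of an involution of J1. -/

set_option autoImplicit false
set_option maxRecDepth 100000

namespace CfsgH7

open Subgroup

theorem cen_prod {G : Type*} [Group G] [Finite G] (z : G) (hz : orderOf z = 2) (H : Subgroup G)
    (hC : centralizer {z} = zpowers z ⊔ H) (hN : 2 * Nat.card H ≤ Nat.card (centralizer {z})) :
    Nonempty (centralizer {z} ≃* Multiplicative (ZMod 2) × H) := by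
  have : Fact (Nat.Prime 2) := ⟨by norm_num⟩
  have h1 : Nat.card (zpowers z) = 2 := by rw [Nat.card_zpowers, hz]
  have hc : ∀ (a : zpowers z) (b : H), Commute ((zpowers z).subtype a) (H.subtype b) := by
    rintro ⟨_, i, rfl⟩ b
    have : (b : G) ∈ centralizer {z} := hC ▸ mem_sup_right b.2
    exact (Commute.symm (mem_centralizer_singleton_iff.1 this)).zpow_left i
  let φ := MonoidHom.noncommCoprod _ _ hc
  have hr : φ.range = centralizer {z} := by
    rw [hC, MonoidHom.noncommCoprod_range, range_subtype, range_subtype]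
  have hb : Function.Bijective φ.rangeRestrict := by
    refine (Nat.bijective_iff_surjective_and_card _).2 ⟨φ.rangeRestrict_surjective, le_antisymm ?_
      (Nat.card_le_card_of_surjective _ φ.rangeRestrict_surjective)⟩
    rw [Nat.card_prod, h1, hr]; exact hN
  have e1 : zpowers z ≃* Multiplicative (ZMod 2) := mulEquivOfPrimeCardEq h1 (by simp)
  exact ⟨(MulEquiv.subgroupCongr hr.symm).trans ((MulEquiv.ofBijective _ hb).symm.trans
    (MulEquiv.prodCongr e1 (MulEquiv.refl _)))⟩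

theorem genW_cons' {G : Type*} [Group G] (g : Nat → G) (x : List Nat) (V : List (List Nat)) :
    genW g (x :: V) = zpowers (wprod g x) ⊔ genW g V := by
  rw [zpowers_eq_closure]; unfold genW; rw [← Subgroup.closure_union]; congr 1; ext y; simp [eq_comm]

end CfsgH7

namespace CfsgH7.J1m.Ci

open CfsgH7.J1m Subgroup

def czC : List Lvl := [⟨22, [[0],[2],[4]], [0,1,0,1,2,0,1,2,0,1,2,0,1,0,2], 266⟩,
  ⟨140, [[1,3,4,2,0],[2,0,4,1,3],[4]], [0,2,1,2,0,2,1,2,0,2,1,2,0,2], 110⟩,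
  ⟨1, [[0,0,4,1,2,4,2,0,4,0],[4]], [0,1], 3⟩,
  ⟨142, [[4]], [0], 2⟩]
def czM : List (List Nat) := [[0x25e20c16e28e2408ef8e76e880c211ffb8e010789bf9691a0411c01688091b06136],
  [0x20000000000000000000000000000000000020000000000000000000000000002],
  [0x400400000000000000000000000000000000],
  []]
def czZ : List Nat := [0x3ffffffffffffffffffffffffffffffffffffffffffffffffffffffffffffffffff]
theorem czL : LvOk G0 (finPt 266) 266 [] (mkLV czC czM) := M0.lvOk czC 9 czM (by decide +kernel) (by decide +kernel)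
noncomputable def hzT : Bt := (.br 0 [[2],[4]] [0,0,1,0,0,0] (Bt.ofL [(22, [], (.br 0 [[2,4,3],[3,3,4,2,2]] [0,1,0] (Bt.ofL [(140, [], (.br 0 [] [] (Bt.ofL [(1, [], (.br 0 [[0]] [0] (Bt.ofL [(142, [], (.leaf 0))])))])))])))]))
theorem hz : Subgroup.centralizer {z | ∃ w ∈ [[4]], wprod g0 w = z} = genW g0 [[4],[3,4,2,2,4],[3,1,1,4,1,3,4,1,2,2]] :=
  M0.cen czL _ [[0]] _ 1 9 czZ hzT (by decide +kernel) (by decide +kernel)
def V : List (List Nat) := [[3,4,2,2,4],[3,1,1,4,1,3,4,1,2,2]]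
theorem hV : Mdl (genW g0 V) 2 A5m.Rf 60 := M0.genMdl (V := V) A5m.pr A5m.mdl0 A5m.simple (by decide +kernel) 0 (by decide +kernel)
theorem ge : 120 ≤ Nat.card (genW g0 ([4] :: V)) := M0.ge ([4] :: V) [⟨0, [[0],[2],[4]], [0,1,2,1,1,2,1,1,2,1,1,2,1,1], 120⟩] 9 (by decide +kernel)

theorem o2 : orderOf (wprod g0 [4]) = 2 := M0.ordN _ (by decide +kernel)
theorem cz : centralizer {wprod g0 [4]} = genW g0 ([4] :: V) := cen_one.symm.trans hz

theorem main0 : Nonempty (centralizer {wprod g0 [4]} ≃* Multiplicative (ZMod 2) × alternatingGroup (Fin 5)) := by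
  have := M0.fin
  obtain ⟨e⟩ := cen_prod _ o2 (genW g0 V) (cz.trans (genW_cons' _ _ _)) (by rw [cz, hV.2.1]; exact ge)
  obtain ⟨e1⟩ := A5m.iso hV
  obtain ⟨e2⟩ := A5m.alt
  exact ⟨e.trans (MulEquiv.prodCongr (MulEquiv.refl _) (e1.symm.trans e2))⟩

theorem main {G : Type*} [Group G] (e : G0 ≃* G) : ∃ t : G, orderOf t = 2 ∧
    Nonempty (centralizer {t} ≃* Multiplicative (ZMod 2) × alternatingGroup (Fin 5)) :=
  ⟨e (wprod g0 [4]), by rw [MulEquiv.orderOf_eq, o2], main0.elim fun f => ⟨(cenE e _).symm.trans f⟩⟩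

end CfsgH7.J1m.Ci
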